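/-
The double cover `2.J2` is perfect.
-/
import Cfsg.Agent.H57.J2Mod

set_option autoImplicit false
set_option maxRecDepth 100000

namespace Cfsg.Agent.H57.J2

open Cfsg.Spor Cfsg.Agent.H14

/-- an element whose tenth power is `-1` -/
noncomputable def g10 : twoJ2 :=
  elt (ptR 0) * elt (ptR 2) * elt (ptR 11) * elt (ptR 94) * elt (ptR 2) * elt (ptR 11)

/-- its effect on coordinates -/
noncomputable def f10 (v : V3) : V3 := ((rI 11).refl v).force fun v => ((rI 2).refl v).force fun v =>
  ((rI 94).refl v).force fun v => ((rI 11).refl v).force fun v => ((rI 2).refl v).force fun v => (rI 0).refl v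

theorem elt_val {w : ℕ} (hw : w < 315) {x : icoLeech} {v : V3} (h : (x : V) = v.val) :
    (((elt (ptR w) : twoJ2) : Equiv.Perm icoLeech) x : V) = ((rI w).refl v).val := by
  rw [elt_apply hw, V3.val_refl (h ▸ x.2) (isMin_rv hw).1, h]; rfl

theorem g10_val {x : icoLeech} {v : V3} (h : (x : V) = v.val) :
    ((g10 : Equiv.Perm icoLeech) x : V) = (f10 v).val := by
  simp only [g10, f10, V3.force_eq, Subgroup.coe_mul, Equiv.Perm.mul_apply]
  exact elt_val (by decide) (elt_val (by decide) (elt_val (by decide) (elt_val (by decide) (elt_val (by decide)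
    (elt_val (by decide) h)))))

theorem g10_pow : g10 ^ 10 = nz := by
  have h1 : g10 ^ 10 ∈ Subgroup.center twoJ2 := by
    rw [← ker_sigma, MonoidHom.mem_ker, ← E100.pk_inj]
    simp only [g10, map_pow, map_mul, E100.pk_pow, E100.pk_mul, E100.pk_one, pk_sigma0, pk_sigma1, pk_sigma2,
      pk_sigma3]
    decide +kernel
  refine (eq_of_mem_center h1).resolve_left fun h => ?_
  have h2 : ∀ (n : ℕ) (x : icoLeech) (v : V3), (x : V) = v.val →
      (((g10 ^ n : twoJ2) : Equiv.Perm icoLeech) x : V) =
        (Nat.rec (motive := fun _ => V3) v (fun _ ih => ih.force f10) n).val := fun n x v hv => by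
    induction n with
    | zero => exact hv
    | succ n ih =>
      rw [pow_succ', Subgroup.coe_mul, Equiv.Perm.mul_apply, g10_val ih]
      exact congrArg V3.val (V3.force_eq _ _).symm
  have h3 := h2 10 ⟨_, (isMin_rv (k := 0) (by decide)).1⟩ (rI 0) rfl
  rw [h] at h3
  exact absurd (V3.beq_iff.2 (V3.val_inj h3)) (by decide +kernel)

theorem elt_sq (f : Om) : elt f * elt f = 1 := by
  obtain ⟨r, h, e⟩ := isRefl_iff.1 f.2
  apply Subtype.ext
  show f.1 * f.1 = 1
  rw [e, mul_eq_one_iff_eq_inv, rp_inv]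

/-- `2.J2` is perfect -/
theorem commutator_twoJ2 : commutator twoJ2 = ⊤ := by
  have h1 : ∀ f : Om, Abelianization.of (elt f) = Abelianization.of (elt (ptR 0)) := fun f => by
    obtain ⟨g, hg⟩ := exists_smul_eq (ptR 0) f
    rw [← hg, elt_smul, map_mul, map_mul, map_inv, mul_inv_cancel_comm]
  generalize hρ : Abelianization.of (elt (ptR 0)) = ρ at h1
  have h2 : ρ * ρ = 1 := by rw [← hρ, ← map_mul, elt_sq, map_one]
  have h3 := congrArg Abelianization.of g10_pow
  simp only [g10, nz, map_pow, map_mul, h1, h2, one_mul, one_pow] at h3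
  rw [eq_top_iff, ← closure_elt, Subgroup.closure_le]
  rintro _ ⟨f, rfl⟩
  rw [SetLike.mem_coe, ← Abelianization.ker_of, MonoidHom.mem_ker, h1, ← h3]

end Cfsg.Agent.H57.J2
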