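/-
A transitive extension of the point stabiliser of the Rudvalis group on 4060 points is the Rudvalis group.
-/
import Cfsg.Agent.H57.RuG1

set_option autoImplicit false
set_option maxRecDepth 100000
set_option exponentiation.threshold 5000

namespace Cfsg.Agent.H57Ru

open Cfsg.Agent.H14 Cfsg.Agent.H55 MulAction
open Cfsg.Agent.H57 (vm bit ent bit_vm)

attribute [local irreducible] tt tA tB mD rho row kp Yp Gi bl vm

theorem tb_all (x : Fin 4060) : tb gL0.D x = true := by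
  rw [show gL0.D = 2 ^ 4060 - 1 by decide +kernel, tb_eq, Nat.testBit_two_pow_sub_one]
  exact decide_eq_true x.2

theorem cover3 (x : Fin 4060) : x = 0 ∨ (∃ g ∈ HH, g • (16 : Fin 4060) = x) ∨ ∃ g ∈ HH, g • (1 : Fin 4060) = x := by
  have h := tb_all x
  rw [← cRow.2.1, tb_eq] at h
  change ((mD ||| gL1.D) ||| 2 ^ 0).testBit x = true at h
  rw [Nat.testBit_or, Nat.testBit_or, Bool.or_eq_true, Bool.or_eq_true, Nat.testBit_two_pow, decide_eq_true_iff,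
    ← tb_eq, ← tb_eq, mD_iff, sig_iff] at h
  rcases h with (h | h) | h
  exacts [.inr (.inl h), .inr (.inr h), .inl (Fin.ext h.symm)]

theorem card_sig : {y | ∃ g ∈ HH, g • (1 : Fin 4060) = y}.ncard = 2304 := by
  have h := card_eq_orbit_mul HH (1 : Fin 4060)
  rw [card_HH, card_K0] at h
  omega

theorem card_del : {y | ∃ g ∈ HH, g • (16 : Fin 4060) = y}.ncard = 1755 := by
  have h := card_eq_orbit_mul HH (16 : Fin 4060)
  rw [card_HH, card_P0] at h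
  omega

theorem row_smul (g : PR) (x y : Fin 4060) :
    (row (g • x : Fin 4060)).testBit (g • y : Fin 4060) = (row x).testBit y := by
  obtain ⟨_, g, rfl⟩ := g
  exact rho_adj g x y

open Classical in
/-- a weight -/
noncomputable def wt (p : Prop) (n : ℕ) : ℕ := if p then n else 0

theorem keyP {p0 p1 p2 p3 p4 p5 p6 p7 : Prop} (h0 : ¬ p0) (h1 : ¬ p1)
    (a : 2304 ≤ wt p0 1 + (wt p1 1 + (wt p2 10 + (wt p3 80 + (wt p4 640 + (wt p5 1024 + (wt p6 1024 + (wt p7 1280 + 0))))))))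
    (b : 1756 ≤ wt (¬ p0) 1 + (wt (¬ p1) 1 + (wt (¬ p2) 10 + (wt (¬ p3) 80 + (wt (¬ p4) 640 + (wt (¬ p5) 1024 +
      (wt (¬ p6) 1024 + (wt (¬ p7) 1280 + 0)))))))) : ¬ p2 ∧ ¬ p3 ∧ ¬ p4 ∧ (¬ p5 → p6) ∧ p7 := by
  by_cases p2 <;> by_cases p3 <;> by_cases p4 <;> by_cases p5 <;> by_cases p6 <;> by_cases p7 <;>
    simp [wt, *] at a b ⊢

theorem keyK {p0 p1 p2 p3 p4 p5 p6 p7 p8 : Prop} (h0 : p0) (h1 : ¬ p1) (h8 : p8)
    (a : 2304 ≤ wt p0 1 + (wt p1 1 + (wt p2 78 + (wt p3 300 + (wt p4 300 + (wt p5 650 + (wt p6 780 + (wt p7 975 +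
      (wt p8 975 + 0)))))))))
    (b : 1756 ≤ wt (¬ p0) 1 + (wt (¬ p1) 1 + (wt (¬ p2) 78 + (wt (¬ p3) 300 + (wt (¬ p4) 300 + (wt (¬ p5) 650 +
      (wt (¬ p6) 780 + (wt (¬ p7) 975 + (wt (¬ p8) 975 + 0))))))))) : p2 ∧ p3 ∧ p4 ∧ p5 ∧ ¬ p6 ∧ ¬ p7 := by
  by_cases p2 <;> by_cases p3 <;> by_cases p4 <;> by_cases p5 <;> by_cases p6 <;> by_cases p7 <;>
    simp [wt, *] at a b ⊢

theorem nbr_spec {R : Fin 4060 → Fin 4060 → Prop} (hinv : ∀ g ∈ HH, ∀ x y, R x y → R (g • x) (g • y))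
    (hval : ∀ x, {y | R x y}.ncard = 2304) {t : TT ℕ} (hv : AP.Valid lkR ⊤ t) {cs : List LvC} (x : Fin 4060)
    (h : orbsOK t [x, 0] gL0.D cs = true) :
    2304 ≤ ((cs.map LvC.L).map fun L => wt (R x (AP.code L.b)) L.s).sum ∧
    1756 ≤ ((cs.map LvC.L).map fun L => wt (¬ R x (AP.code L.b)) L.s).sum ∧
    ((∀ L ∈ cs.map LvC.L, R x (AP.code L.b) ↔ (row x).testBit (AP.code L.b : Fin 4060) = true) →
      ∀ y, R x y ↔ (row x).testBit y = true) := by
  obtain ⟨h1, h2⟩ := orbs_spec hv h (K := HH ⊓ stabilizer PR x) fun g f hf h =>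
    ⟨fn_fix hf h 0 (by simp), fn_fix hf h x (by simp)⟩
  have h3 : ∀ g ∈ HH ⊓ stabilizer PR x, ∀ y ∈ {y | R x y}, g • y ∈ {y | R x y} := fun g hg y hy => by
    have := hinv g hg.1 x y hy
    rwa [show g • x = x from hg.2] at this
  have h4 : ∀ T : Set (Fin 4060), ∀ y ∈ T, ∃ L ∈ cs.map LvC.L, ∃ i, tb L.D i = true ∧ AP.code i = y := fun _ y _ =>
    let ⟨L, a, b⟩ := h2 y (tb_all y); ⟨L, a, y, b, finAM_code _ y⟩
  refine ⟨(hval x).ge.trans (ncard_le_sum h1 h3 le_rfl (h4 _)), ?_, fun h5 y => ?_⟩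
  · refine le_trans ?_ (ncard_le_sum (S := {y | R x y}ᶜ) h1 (fun g hg y hy h => hy (by
      simpa using h3 _ (inv_mem hg) _ h)) le_rfl (h4 _))
    have := Set.ncard_add_ncard_compl {y | R x y}
    rw [hval, Nat.card_fin] at this
    omega
  · obtain ⟨L, a, b⟩ := h2 y (tb_all y)
    have h6 := orb_mem_iff (h1 L a) h3 b
    have h7 := orb_mem_iff (S := {y : Fin 4060 | (row x).testBit y = true}) (h1 L a) (fun g hg y hy => by
      have := row_smul g x y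
      rw [show g • x = x from hg.2] at this
      exact this.trans hy) b
    rw [finAM_code] at h6 h7
    exact h6.trans ((h5 L a).trans h7.symm)

theorem rel_eq_row {R : Fin 4060 → Fin 4060 → Prop} (hinv : ∀ g ∈ HH, ∀ x y, R x y → R (g • x) (g • y))
    (hsym : ∀ x y, R x y → R y x) (hirr : ∀ x, ¬ R x x) (h0 : ∀ y, R 0 y ↔ ∃ g ∈ HH, g • (1 : Fin 4060) = y)
    (hval : ∀ x, {y | R x y}.ncard = 2304) (x y : Fin 4060) : R x y ↔ (row x).testBit y = true := by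
  have a0 : ∀ y, R 0 y ↔ (row (0 : Fin 4060)).testBit y = true := fun y => by
    rw [h0, ← sig_iff, tb_eq, ← cRow.1]; rfl
  have ext : ∀ b : Fin 4060, (∀ y, R b y ↔ (row b).testBit y = true) → ∀ g ∈ HH, ∀ y, R (g • b) y ↔
      (row (g • b : Fin 4060)).testBit y = true := fun b hb g hg y => by
    rw [← smul_inv_smul g y, row_smul, ← hb]
    exact ⟨fun h => by simpa using hinv _ (inv_mem hg) _ _ h, hinv g hg _ _⟩
  obtain ⟨p1, p2, p3⟩ := nbr_spec hinv hval validA 16 cOP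
  obtain ⟨k1, k2, k3⟩ := nbr_spec hinv hval validP 1 cOK
  have b0 : ¬ R 16 0 := fun h => absurd ((a0 _).1 (hsym _ _ h)) (by decide +kernel)
  have b1 := hirr 16
  have b2 := keyP b0 b1 p1 p2
  have c0 : R 1 0 := hsym _ _ ((h0 _).2 ⟨1, one_mem _, one_smul _ _⟩)
  have c1 := hirr 1
  have c2 := hsym _ _ b2.2.2.2.2
  have c3 := keyK c0 c1 c2 k1 k2
  have T : ∀ {p : Prop} {b : Bool}, p → b = true → (p ↔ b = true) := fun h h' => iff_of_true h h'
  have F : ∀ {p : Prop} {b : Bool}, ¬ p → b = false → (p ↔ b = true) := fun h h' => iff_of_false h (by simp [h'])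
  have a1 := ext 1 (k3 (by
    have h := cRow.2.2.1
    simp only [oKs, List.map_cons, List.map_nil, List.cons.injEq, and_true, List.forall_mem_cons] at h ⊢
    obtain ⟨d0, d1, d2, d3, d4, d5, d6, d7, d8⟩ := h
    exact ⟨T c0 d0, F c1 d1, T c3.1 d2, T c3.2.1 d3, T c3.2.2.1 d4, T c3.2.2.2.1 d5, F c3.2.2.2.2.1 d6,
      F c3.2.2.2.2.2 d7, T c2 d8, by simp⟩))
  have b3 : ¬ R 16 3 := fun h => by
    obtain ⟨g, hg, e⟩ := (sig_iff 3).1 (by decide +kernel)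
    have := a1 g hg 16
    rw [e] at this
    exact absurd (this.1 (hsym _ _ h)) (by decide +kernel)
  have a2 := ext 16 (p3 (by
    have h := cRow.2.2.2
    simp only [oPs, List.map_cons, List.map_nil, List.cons.injEq, and_true, List.forall_mem_cons] at h ⊢
    obtain ⟨d0, d1, d2, d3, d4, d5, d6, d7⟩ := h
    exact ⟨F b0 d0, F b1 d1, F b2.1 d2, F b2.2.1 d3, F b2.2.2.1 d4, F b3 d5, T (b2.2.2.2.1 b3) d6,
      T b2.2.2.2.2 d7, by simp⟩))
  rcases cover3 x with rfl | ⟨g, hg, rfl⟩ | ⟨g, hg, rfl⟩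
  exacts [a0 y, a2 g hg y, a1 g hg y]

/-- the automorphism group of the graph -/
def autR : Subgroup (Equiv.Perm (Fin 4060)) where
  carrier := {g | ∀ i j : Fin 4060, (row (g i)).testBit (g j) = (row i).testBit j}
  one_mem' _ _ := rfl
  mul_mem' {a b} ha hb i j := (ha _ _).trans (hb i j)
  inv_mem' {a} ha i j := by simpa using (ha (a⁻¹ i) (a⁻¹ j)).symm

theorem autR_eq : rho.range = autR := by
  refine Subgroup.eq_of_le_of_card_ge (fun g hg => row_smul ⟨g, hg⟩) (le_of_le_of_eq ?_ card_PR.symm)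
  refine card_le_of_adj (fun _ hg => hg) fun g hg h => Equiv.ext fun m => show g m = m from Fin.ext ?_
  have h1 := allN_iff.1 cGi
  simp only [Bool.and_eq_true, beq_iff, force_eq, all2_iff, beq_iff_eq, tb_eq] at h1
  refine kp_inj (g m).2 m.2 (eq_of_bit (line_raw (g m).2).2.1 (line_raw m.2).2.1 fun j hj => ?_)
  rw [bit, bit, ← (h1 j hj).2 _ (g m).2, ← (h1 j hj).2 _ m.2]
  change bit _ _ = bit _ _
  rw [bit_vm, bit_vm, len_Yp]
  refine Finset.sum_congr rfl fun k hk => congrArg _ ?_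
  have hk := Finset.mem_range.1 hk
  have h2 := hg ⟨_, (gram_spec hk).1⟩ m
  rw [h _ (by
    change nth bl k ∈ bl
    have : k < bl.length := by unfold bl; exact hk
    rw [nth_eq, List.getD_eq_getElem _ _ this]; exact List.getElem_mem _)] at h2
  rw [ent, ent, ← nth_eq, ← (h1 k hk).1, bit, bit, h2]

theorem eq_range {K : Subgroup (Equiv.Perm (Fin 4060))} (ht : ∀ x, ∃ g ∈ K, g 0 = x) (h1 : ∀ g ∈ HH, g.1 ∈ K)
    (h2 : ∀ g ∈ K, g 0 = 0 → g ∈ rho.range) : K = rho.range := by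
  let R : Fin 4060 → Fin 4060 → Prop := fun x y => ∃ g ∈ K, g 0 = x ∧ g 1 = y
  have hinv : ∀ g ∈ K, ∀ x y, R x y → R (g x) (g y) := by
    rintro g hg _ _ ⟨k, hk, rfl, rfl⟩
    exact ⟨g * k, mul_mem hg hk, rfl, rfl⟩
  have h0 : ∀ y, R 0 y ↔ ∃ g ∈ HH, g • (1 : Fin 4060) = y := fun y =>
    ⟨fun ⟨g, hg, a, b⟩ => ⟨⟨g, h2 g hg a⟩, a, b⟩, fun ⟨g, hg, b⟩ => ⟨g.1, h1 g hg, hg, b⟩⟩
  have h10 : R 1 0 := by
    obtain ⟨g, hg, e⟩ := ht 1
    have e' : g⁻¹ 1 = 0 := by rw [← e]; simp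
    rcases cover3 (g⁻¹ 0) with h | ⟨k, hk, h⟩ | ⟨k, hk, h⟩
    · exact absurd (g⁻¹.injective (h.trans e'.symm)) (by decide)
    · have := Fact.mk (show Nat.Prime 13 by decide)
      obtain ⟨y, hy⟩ := exists_prime_orderOf_dvd_card' (G := ↥(HH ⊓ stabilizer PR (1 : Fin 4060))) 13
        (by rw [card_K0]; decide)
      have y0 : y.1.1 0 = 0 := y.2.1
      have y1 : y.1.1 1 = 1 := y.2.2
      have h3 : (g⁻¹ * y.1.1 * g) 0 = 0 := by rw [Equiv.Perm.mul_apply, Equiv.Perm.mul_apply, e, y1, e']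
      let z : PR := ⟨_, h2 _ (mul_mem (mul_mem (inv_mem hg) (h1 _ y.2.1)) hg) h3⟩
      have h4 : k⁻¹ * z * k ∈ HH ⊓ stabilizer PR (16 : Fin 4060) := Subgroup.mem_inf.2
        ⟨mul_mem (mul_mem (inv_mem hk) h3) hk, by
        rw [mem_stabilizer_iff, mul_smul, mul_smul, inv_smul_eq_iff, h]
        change (g⁻¹ * y.1.1 * g) (g⁻¹ 0) = _
        simp [y0]⟩
      have h5 := Subgroup.orderOf_dvd_natCard _ h4
      have h6 : orderOf (k⁻¹ * z * k) = orderOf z := by simpa using (MulAut.conj k⁻¹).orderOf_eq z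
      have h7 : orderOf (g⁻¹ * y.1.1 * g) = orderOf y.1.1 := by simpa using (MulAut.conj g⁻¹).orderOf_eq y.1.1
      rw [h6, ← Subgroup.orderOf_coe, h7, Subgroup.orderOf_coe, Subgroup.orderOf_coe, hy, card_P0] at h5
      exact absurd h5 (by decide)
    · refine ⟨k.1⁻¹ * g⁻¹, mul_mem (inv_mem (h1 k hk)) (inv_mem hg), ?_, ?_⟩
      · rw [Equiv.Perm.mul_apply, Equiv.Perm.inv_eq_iff_eq]; exact h.symm
      · rw [Equiv.Perm.mul_apply, e', Equiv.Perm.inv_eq_iff_eq]; exact hk.symm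
  have key := rel_eq_row (R := R) (fun g hg => hinv g.1 (h1 g hg)) (by
      rintro _ _ ⟨g, hg, rfl, rfl⟩; exact hinv g hg _ _ h10)
    (fun x ⟨g, _, a, b⟩ => absurd (g.injective (a.trans b.symm)) (by decide)) h0 fun x => by
      obtain ⟨g, hg, rfl⟩ := ht x
      rw [← card_sig, ← Set.ncard_image_of_injective {y | ∃ g ∈ HH, g • (1 : Fin 4060) = y} g.injective]
      refine congrArg _ (Set.ext fun y => ⟨fun h => ⟨g⁻¹ y, (h0 _).1 ?_, by simp⟩, ?_⟩)
      · simpa using hinv _ (inv_mem hg) _ _ h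
      · rintro ⟨y, h, rfl⟩; exact hinv g hg _ _ ((h0 _).2 h)
  have h3 : K ≤ rho.range := autR_eq ▸ fun g hg i j => Bool.eq_iff_iff.2 (by
    rw [← key, ← key]
    exact ⟨fun h => by simpa using hinv _ (inv_mem hg) _ _ h, hinv g hg _ _⟩)
  refine le_antisymm h3 fun g hg => ?_
  obtain ⟨k, hk, e⟩ := ht (g 0)
  have := h1 ⟨k⁻¹ * g, mul_mem (inv_mem (h3 hk)) hg⟩ (show (k⁻¹ * g) 0 = 0 by
    rw [Equiv.Perm.mul_apply, ← e]; simp)
  simpa using mul_mem hk this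

theorem cover_of_card {A X : Type*} [Group A] [MulAction A X] [Finite X] (hX : Nat.card X = 4060) {x : Fin 3 → X}
    (h : ∀ i, (orbit A (x i)).ncard = ![1, 1755, 2304] i) :
    (∀ p, ∃ i, ∃ g : A, p = g • x i) ∧ ∀ i j (g : A), g • x i = x j → i = j := by
  have h1 : ∀ i j (g : A), g • x i = x j → i = j := fun i j g e => by
    have := h j
    rw [← e, orbit_smul, h i] at this
    clear e; revert i j; decide
  have h2 : ∀ i j, i ≠ j → Disjoint (orbit A (x i)) (orbit A (x j)) := fun i j hij => Set.disjoint_left.2 <| by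
    rintro _ ⟨g, rfl⟩ ⟨k, e⟩
    exact hij (h1 i j (k⁻¹ * g) (by rw [mul_smul, inv_smul_eq_iff]; exact e.symm))
  have h3 : orbit A (x 0) ∪ orbit A (x 1) ∪ orbit A (x 2) = Set.univ := by
    rw [Set.eq_univ_iff_ncard, Set.ncard_union_eq (Set.disjoint_union_left.2 ⟨h2 _ _ (by decide), h2 _ _ (by decide)⟩),
      Set.ncard_union_eq (h2 _ _ (by decide)), h, h, h, hX]
    rfl
  refine ⟨fun p => ?_, h1⟩
  rcases h3.ge (Set.mem_univ p) with (⟨g, e⟩ | ⟨g, e⟩) | ⟨g, e⟩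
  exacts [⟨0, g, e.symm⟩, ⟨1, g, e.symm⟩, ⟨2, g, e.symm⟩]

theorem fix_iff {A B X Y : Type*} [Group A] [Group B] [MulAction A X] [MulAction B Y] [Finite B] (θ : A ≃* B)
    {x : X} {y : Y} (h : (orbit A x).ncard = (orbit B y).ncard) (h1 : ∀ g : A, g • x = x → θ g • y = y) (g : A) :
    g • x = x ↔ θ g • y = y := by
  have h2 : (stabilizer A x).map θ.toMonoidHom = stabilizer B y := by
    refine Subgroup.eq_of_le_of_card_ge (by rintro _ ⟨g, hg, rfl⟩; exact h1 g hg) (le_of_eq ?_)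
    have h3 := (stabilizer A x).index_mul_card
    have h4 := (stabilizer B y).index_mul_card
    rw [index_stabilizer, ← h, ← Nat.card_congr θ.toEquiv, ← h3, index_stabilizer] at h4
    rw [Subgroup.card_map_of_injective θ.injective]
    refine Nat.eq_of_mul_eq_mul_left ?_ h4
    rw [h, ← index_stabilizer]
    exact Nat.pos_of_ne_zero Subgroup.index_ne_zero_of_finite
  refine ⟨h1 g, fun e => ?_⟩
  obtain ⟨k, hk, e'⟩ := h2.ge e
  rwa [← θ.injective e']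

theorem orbit_HH {h : PR} (hh : h ∈ HH) (b : Fin 4060) : orbit HH (h • b) = {y | ∃ g ∈ HH, g • b = y} :=
  (orbit_smul (⟨h, hh⟩ : HH) b).trans (Set.ext fun _ => ⟨fun ⟨g, e⟩ => ⟨g, g.2, e⟩, fun ⟨g, hg, e⟩ => ⟨⟨g, hg⟩, e⟩⟩)

theorem iso_of_rank3 {Ω : Type*} [Finite Ω] (hΩ : Nat.card Ω = 4060) (G : Subgroup (Equiv.Perm Ω))
    [IsPretransitive G Ω] (a : Ω) (θ : stabilizer G a ≃* HH) (b c : Ω) (hb : (orbit (stabilizer G a) b).ncard = 1755)
    (hc : (orbit (stabilizer G a) c).ncard = 2304) : Nonempty (G ≃* PR) := by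
  have key : ∀ (x : Ω) (n m : ℕ), (orbit (stabilizer G a) x).ncard = n → 35942400 = n * m → 0 < n →
      ∃ K ≤ HH, Nat.card K = m ∧ ∀ g : stabilizer G a, g • x = x → (θ g).1 ∈ K := fun x n m h1 h2 h3 => by
    refine ⟨((stabilizer _ x).map θ.toMonoidHom).map HH.subtype, Subgroup.map_subtype_le _, ?_,
      fun g hg => ⟨_, ⟨g, hg, rfl⟩, rfl⟩⟩
    have h4 := (stabilizer (stabilizer G a) x).index_mul_card
    rw [index_stabilizer, h1, Nat.card_congr θ.toEquiv, card_HH, h2] at h4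
    rw [Subgroup.card_map_of_injective HH.subtype_injective, Subgroup.card_map_of_injective θ.injective]
    exact Nat.eq_of_mul_eq_mul_left h3 h4
  obtain ⟨K, k1, k2, k3⟩ := key b _ 20480 hb (by decide) (by decide)
  obtain ⟨L, l1, l2, l3⟩ := key c _ 15600 hc (by decide) (by decide)
  obtain ⟨p, p1, p2⟩ := fixP k1 k2
  obtain ⟨q, q1, q2⟩ := fixK l1 l2
  have hx : ∀ i, (orbit (stabilizer G a) (![a, b, c] i)).ncard = ![1, 1755, 2304] i :=
    Fin.forall_fin_succ.2 ⟨Set.ncard_eq_one.2 ⟨a, Set.eq_singleton_iff_unique_mem.2 ⟨mem_orbit_self _, by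
      rintro _ ⟨g, rfl⟩; exact g.2⟩⟩, Fin.forall_fin_two.2 ⟨hb, hc⟩⟩
  have hy : ∀ i, (orbit HH (![(0 : Fin 4060), p • 16, q • 1] i)).ncard = ![1, 1755, 2304] i :=
    Fin.forall_fin_succ.2 ⟨Set.ncard_eq_one.2 ⟨0, Set.eq_singleton_iff_unique_mem.2 ⟨mem_orbit_self _, by
      rintro _ ⟨g, rfl⟩; exact g.2⟩⟩, Fin.forall_fin_two.2 ⟨(congrArg _ (orbit_HH p1 _)).trans card_del,
        (congrArg _ (orbit_HH q1 _)).trans card_sig⟩⟩
  obtain ⟨x1, x2⟩ := cover_of_card hΩ hx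
  obtain ⟨y1, y2⟩ := cover_of_card (Nat.card_fin _) hy
  obtain ⟨β, b1, b2⟩ := exists_equiv_of_orbits θ _ _ x1 y1 fun i j g => by
    by_cases h : i = j
    · subst h
      refine fix_iff θ ((hx i).trans (hy i).symm) ?_ g
      revert i
      exact Fin.forall_fin_succ.2 ⟨fun g _ => (θ g).2, Fin.forall_fin_two.2
        ⟨fun g hg => p2 _ (k3 g hg), fun g hg => q2 _ (l3 g hg)⟩⟩
    · exact iff_of_false (fun e => h (x2 _ _ _ e)) fun e => h (y2 _ _ _ e)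
  have b3 : β a = 0 := b2 0
  have b4 : ∀ g : stabilizer G a, β.permCongrHom g.1.1 = (θ g).1.1 := fun g => Equiv.ext fun y => by
    have := b1 g (β.symm y)
    rwa [β.apply_symm_apply] at this
  refine ⟨(β.permCongrHom.subgroupMap G).trans (MulEquiv.subgroupCongr (eq_range (fun x => ?_) (fun g hg => ?_) ?_))⟩
  · obtain ⟨g, hg⟩ := exists_smul_eq G a (β.symm x)
    refine ⟨_, ⟨g.1, g.2, rfl⟩, ?_⟩
    change β (g • β.symm 0) = x
    rw [← b3, β.symm_apply_apply, hg, β.apply_symm_apply]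
  · exact ⟨_, (θ.symm ⟨g, hg⟩).1.2, (b4 _).trans (by rw [θ.apply_symm_apply])⟩
  · rintro _ ⟨g, hg, rfl⟩ h
    have h1 : (⟨g, hg⟩ : G) ∈ stabilizer G a := by
      change β (g (β.symm 0)) = 0 at h
      rw [← b3, β.symm_apply_apply] at h
      exact β.injective h
    exact (b4 ⟨_, h1⟩).symm ▸ (θ ⟨_, h1⟩).1.2

end Cfsg.Agent.H57Ru
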